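import Cfsg.Agent.H46.SylOf
import Cfsg.Agent.Transfer.Residual
import Cfsg.Agent.BG.Coprime

set_option autoImplicit false

namespace Cfsg.Agent.H46

open Cfsg

/-- being of characteristic `p` is invariant under isomorphism -/
theorem charP_congr {A B : Type*} [Group A] [Group B] (p : ℕ) (e : A ≃* B)
    (h : Subgroup.centralizer (pCore p A : Set A) ≤ pCore p A) :
    Subgroup.centralizer (pCore p B : Set B) ≤ pCore p B := by
  intro x hx
  rw [← Cfsg.Agent.Solv.map_pCore p e]
  refine ⟨e.symm x, h ?_, by simp⟩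
  refine Subgroup.mem_centralizer_iff.2 ?_
  intro y hy
  have h1 : e y ∈ pCore p B := by
    rw [← Cfsg.Agent.Solv.map_pCore p e]; exact ⟨y, hy, rfl⟩
  have h2 := Subgroup.mem_centralizer_iff.1 hx _ h1
  apply e.injective
  simpa using h2

/-- A subgroup of a finite group all of whose `p'`-elements are trivial is a `p`-group. -/
theorem isPGroup_of_pPrime_elements {G : Type*} [Group G] [Finite G] {p : ℕ} [Fact p.Prime] (C : Subgroup G)
    (h : ∀ x ∈ C, (orderOf x).Coprime p → x = 1) : IsPGroup p C := by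
  rw [IsPGroup.iff_orderOf]
  intro x
  obtain ⟨a, b, hab, ⟨k, hk⟩, hb⟩ := Cfsg.Agent.Transfer.exists_pow_decomp p x (orderOf_pos x).ne'
  have h1 : ((x ^ b : C) : G) = 1 := by
    apply h _ (x ^ b).2
    rw [Subgroup.orderOf_coe]; exact hb
  have h2 : x ^ b = 1 := Subtype.ext h1
  refine ⟨k, ?_⟩
  rw [hab, h2, mul_one, hk]

theorem eq_one_of_isPGroup_of_coprime {G : Type*} [Group G] {p : ℕ} {C : Subgroup G} (hC : IsPGroup p C)
    {x : G} (hx : x ∈ C) (hc : (orderOf x).Coprime p) : x = 1 := by
  obtain ⟨k, hk⟩ := hC ⟨x, hx⟩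
  have h1 : x ^ p ^ k = 1 := congrArg Subtype.val hk
  have h2 : orderOf x ∣ p ^ k := orderOf_dvd_of_pow_eq_one h1
  have h3 : (orderOf x).Coprime (p ^ k) := Nat.Coprime.pow_right k hc
  exact orderOf_eq_one_iff.1 (Nat.Coprime.eq_one_of_dvd h3 h2)

theorem charP_of_normal {G : Type*} [Group G] [Finite G] {p : ℕ} [Fact p.Prime]
    (h : Subgroup.centralizer (pCore p G : Set G) ≤ pCore p G) (N : Subgroup G) [N.Normal] :
    Subgroup.centralizer (pCore p ↥N : Set ↥N) ≤ pCore p ↥N := by
  set Q := pCore p G with hQ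
  have hQN : (pCore p N).map N.subtype = N ⊓ Q := Cfsg.Agent.Solv.inf_pCore_eq p N
  have hQp : IsPGroup p Q := Cfsg.Agent.Solv.pCore_isPGroup p
  set C : Subgroup N := Subgroup.centralizer (pCore p ↥N : Set ↥N) with hC
  have hCp : IsPGroup p C := by
    apply isPGroup_of_pPrime_elements
    intro x hx hxp
    have hx1 : ⁅Q, Subgroup.zpowers (x : G)⁆ = ⊥ := by
      apply Cfsg.Agent.BG.commutator_eq_bot_of_le (L := N ⊓ Q)
      · have h1 : Nat.card (Subgroup.zpowers (x : G)) = orderOf x := by
          rw [Nat.card_zpowers, Subgroup.orderOf_coe]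
        rw [h1]
        obtain ⟨n, hn⟩ := IsPGroup.iff_card.1 (hQp.to_le (inf_le_right : N ⊓ Q ≤ Q))
        rw [hn]
        exact Nat.Coprime.pow_right n hxp
      · refine le_inf ?_ ?_
        · refine (Subgroup.commutator_mono le_rfl ?_).trans (Subgroup.commutator_le_right Q N)
          rw [Subgroup.zpowers_le]; exact x.2
        · exact Subgroup.commutator_le_left Q _
      · rw [Subgroup.commutator_eq_bot_iff_le_centralizer]
        rw [Subgroup.le_centralizer_iff, Subgroup.zpowers_le, ← hQN]
        refine Subgroup.mem_centralizer_iff.2 ?_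
        rintro _ ⟨y, hy, rfl⟩
        exact congrArg Subtype.val (Subgroup.mem_centralizer_iff.1 hx y hy)
    have hx2 : (x : G) ∈ Q := by
      apply h
      rw [Subgroup.commutator_eq_bot_iff_le_centralizer, Subgroup.le_centralizer_iff,
        Subgroup.zpowers_le] at hx1
      exact hx1
    apply Subtype.ext
    exact eq_one_of_isPGroup_of_coprime hQp hx2 (by rwa [Subgroup.orderOf_coe])
  exact Cfsg.Agent.Solv.le_pCore inferInstance hCp

theorem charP_of_residual {H : Type*} [Group H] [Finite H] {p : ℕ} [Fact p.Prime]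
    (h : Subgroup.centralizer (pCore p ↥(pResidual p H) : Set ↥(pResidual p H)) ≤ pCore p ↥(pResidual p H)) :
    Subgroup.centralizer (pCore p H : Set H) ≤ pCore p H := by
  have hCp : IsPGroup p (Subgroup.centralizer (pCore p H : Set H)) := by
    apply isPGroup_of_pPrime_elements
    intro x hx hxp
    have hxE : x ∈ pResidual p H := Cfsg.Agent.Transfer.mem_pResidual_of_coprime hxp
    have := Cfsg.Agent.Transfer.pResidual_normal (G := H) p
    have h1 : (⟨x, hxE⟩ : pResidual p H) ∈ pCore p ↥(pResidual p H) := by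
      apply h
      refine Subgroup.mem_centralizer_iff.2 ?_
      intro y hy
      have hy2 : (y : H) ∈ pCore p H :=
        Cfsg.Agent.Solv.map_subtype_pCore_le p (pResidual p H) ⟨y, hy, rfl⟩
      apply Subtype.ext
      exact Subgroup.mem_centralizer_iff.1 hx y hy2
    have h2 := eq_one_of_isPGroup_of_coprime (Cfsg.Agent.Solv.pCore_isPGroup p) h1
      (by rwa [Subgroup.orderOf_mk])
    exact congrArg Subtype.val h2
  exact Cfsg.Agent.Solv.le_pCore inferInstance hCp

end Cfsg.Agent.H46
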