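import Cfsg.Prelude.Def_LocalEven
import Cfsg.Prelude.Def_TwoFusion
import Cfsg.Agent.H46.Qd3

/-! Normal form for a faithful natural `SL₂(F)`-module inside a group, adapted to a Sylow `p`-subgroup. -/

set_option autoImplicit false

namespace Cfsg.Agent.H46

open Matrix

variable {G : Type*} [Group G] {F : Type*} [Field F]

/-- coordinates -/
structure NatNF (F : Type*) [Field F] (V L T : Subgroup G) where
  e : (Fin 2 → F) → G
  m : Matrix.SpecialLinearGroup (Fin 2) F →* G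
  e_add : ∀ u w, e (u + w) = e u * e w
  e_inj : Function.Injective e
  m_inj : Function.Injective m
  mem_V : ∀ g, g ∈ V ↔ ∃ u, g = e u
  mem_L : ∀ g, g ∈ L ↔ ∃ A, g = m A
  conj : ∀ A u, m A * e u * (m A)⁻¹ = e ((A : Matrix (Fin 2) (Fin 2) F) *ᵥ u)
  mem_T : ∀ g, g ∈ T ↔ ∃ a, g = m (sl2U a)

namespace NatNF

variable {V L T : Subgroup G} (N : NatNF F V L T)

include N

theorem e_zero : N.e 0 = 1 := by
  have := N.e_add 0 0
  rw [add_zero] at this
  exact (mul_eq_left.1 this.symm)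

theorem e_neg (u : Fin 2 → F) : N.e (-u) = (N.e u)⁻¹ := by
  rw [eq_inv_iff_mul_eq_one, ← N.e_add, neg_add_cancel, N.e_zero]

theorem e_eq_one {u : Fin 2 → F} : N.e u = 1 ↔ u = 0 := by
  rw [← N.e_zero]; exact N.e_inj.eq_iff

theorem commute_iff (A : Matrix.SpecialLinearGroup (Fin 2) F) (u : Fin 2 → F) :
    N.m A * N.e u = N.e u * N.m A ↔ (A : Matrix (Fin 2) (Fin 2) F) *ᵥ u = u := by
  constructor
  · intro h
    apply N.e_inj
    rw [← N.conj, h]; group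
  · intro h
    have := N.conj A u
    rw [h] at this
    exact mul_inv_eq_iff_eq_mul.1 this

theorem comm_eq (A : Matrix.SpecialLinearGroup (Fin 2) F) (u : Fin 2 → F) :
    N.e u * N.m A * (N.e u)⁻¹ * (N.m A)⁻¹ = N.e (u - (A : Matrix (Fin 2) (Fin 2) F) *ᵥ u) := by
  rw [sub_eq_add_neg, N.e_add, ← mulVec_neg, ← N.conj, N.e_neg]
  group

omit N in
theorem sl2U_mulVec (a : F) (u : Fin 2 → F) :
    (sl2U a : Matrix (Fin 2) (Fin 2) F) *ᵥ u = ![u 0 + a * u 1, u 1] := by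
  rw [sl2U_coe]
  ext i
  fin_cases i <;> simp [Matrix.mulVec, dotProduct, Fin.sum_univ_two]

theorem mem_CV (g : G) : g ∈ V ⊓ Subgroup.centralizer (T : Set G) ↔ ∃ x : F, g = N.e ![x, 0] := by
  rw [Subgroup.mem_inf, Subgroup.mem_centralizer_iff]
  constructor
  · rintro ⟨hV, h⟩
    obtain ⟨u, rfl⟩ := (N.mem_V g).1 hV
    have h1 := h (N.m (sl2U 1)) ((N.mem_T _).2 ⟨1, rfl⟩)
    rw [N.commute_iff, sl2U_mulVec] at h1
    have h2 := congrFun h1 0
    simp at h2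
    refine ⟨u 0, ?_⟩
    congr 1
    ext i
    fin_cases i <;> simp [h2]
  · rintro ⟨x, rfl⟩
    refine ⟨(N.mem_V _).2 ⟨_, rfl⟩, ?_⟩
    intro t ht
    obtain ⟨a, rfl⟩ := (N.mem_T _).1 ht
    rw [N.commute_iff, sl2U_mulVec]
    ext i
    fin_cases i <;> simp

theorem mem_Cs {a : F} (ha : a ≠ 0) (g : G) :
    g ∈ V ⊓ Subgroup.centralizer ({N.m (sl2U a)} : Set G) ↔ ∃ x : F, g = N.e ![x, 0] := by
  rw [Subgroup.mem_inf, Subgroup.mem_centralizer_iff]
  constructor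
  · rintro ⟨hV, h⟩
    obtain ⟨u, rfl⟩ := (N.mem_V g).1 hV
    have h1 := h (N.m (sl2U a)) rfl
    rw [N.commute_iff, sl2U_mulVec] at h1
    have h2 := congrFun h1 0
    simp [ha] at h2
    refine ⟨u 0, ?_⟩
    congr 1
    ext i
    fin_cases i <;> simp [h2]
  · rintro ⟨x, rfl⟩
    refine ⟨(N.mem_V _).2 ⟨_, rfl⟩, ?_⟩
    intro t ht
    rw [Set.mem_singleton_iff] at ht
    subst ht
    rw [N.commute_iff, sl2U_mulVec]
    ext i
    fin_cases i <;> simp

theorem comm_U (a : F) (u : Fin 2 → F) :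
    N.e u * N.m (sl2U a) * (N.e u)⁻¹ * (N.m (sl2U a))⁻¹ = N.e ![- (a * u 1), 0] := by
  rw [N.comm_eq, sl2U_mulVec]
  congr 1
  ext i
  fin_cases i <;> simp

end NatNF

/-- Existence of the normal form. -/
theorem exists_natNF [Finite G] {p : ℕ} [Fact p.Prime] [Finite F] [CharP F p] {V L : Subgroup G}
    (hnat : Cfsg.IsNaturalSL2Module F V L) (hf : L ⊓ Subgroup.centralizer (V : Set G) = ⊥) (S : Sylow p ↥L) :
    Nonempty (NatNF F V L ((S : Subgroup ↥L).map L.subtype)) := by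
  obtain ⟨hLN, ρ, ψ, hsurj, hker, hact⟩ := hnat
  have hinj : Function.Injective ρ := by
    rw [← MonoidHom.ker_eq_bot_iff, hker, Subgroup.subgroupOf_eq_bot, disjoint_iff, inf_comm]
    exact hf
  let E : L ≃* Matrix.SpecialLinearGroup (Fin 2) F := MulEquiv.ofBijective ρ ⟨hinj, hsurj⟩
  obtain ⟨w, hw, hfix⟩ := sl2_pSubgroup_fix (p := p) ((S : Subgroup ↥L).map ρ) (S.2.map _)
  obtain ⟨g, hg⟩ := exists_sl2_mulVec w hw
  -- the maps
  let e : (Fin 2 → F) → G := fun u => ((Additive.toMul (ψ.symm ((g : Matrix (Fin 2) (Fin 2) F) *ᵥ u)) : V) : G)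
  let m : Matrix.SpecialLinearGroup (Fin 2) F →* G :=
    L.subtype.comp (E.symm.toMonoidHom.comp (MulAut.conj g).toMonoidHom)
  have hm : ∀ A, m A = (E.symm (g * A * g⁻¹) : L) := fun A => rfl
  have hEρ : ∀ B, ρ (E.symm B) = B := fun B => E.apply_symm_apply B
  have hactE : ∀ (l : L) (u : Fin 2 → F),
      (l : G) * ((Additive.toMul (ψ.symm u) : V) : G) * (l : G)⁻¹ =
        ((Additive.toMul (ψ.symm ((ρ l : Matrix (Fin 2) (Fin 2) F) *ᵥ u)) : V) : G) := by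
    intro l u
    obtain ⟨w', hw', hψ⟩ := hact l (Additive.toMul (ψ.symm u))
    rw [← hw']
    congr 1
    have h1 : ψ (Additive.ofMul w') = (ρ l : Matrix (Fin 2) (Fin 2) F) *ᵥ u := by
      rw [hψ, ofMul_toMul, ψ.apply_symm_apply]
    rw [← h1, ψ.symm_apply_apply]
    rfl
  have hconj : ∀ A u, m A * e u * (m A)⁻¹ = e ((A : Matrix (Fin 2) (Fin 2) F) *ᵥ u) := by
    intro A u
    rw [hm]
    show _ * ((Additive.toMul (ψ.symm ((g : Matrix (Fin 2) (Fin 2) F) *ᵥ u)) : V) : G) * _ = _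
    rw [hactE, hEρ]
    show _ = ((Additive.toMul (ψ.symm ((g : Matrix (Fin 2) (Fin 2) F) *ᵥ ((A : Matrix (Fin 2) (Fin 2) F) *ᵥ u))) : V) : G)
    rw [mulVec_mulVec, mulVec_mulVec, ← Matrix.SpecialLinearGroup.coe_mul, ← Matrix.SpecialLinearGroup.coe_mul,
      inv_mul_cancel_right]
  have hmL : ∀ h, h ∈ L ↔ ∃ A, h = m A := by
    intro h
    constructor
    · intro hh
      refine ⟨g⁻¹ * ρ ⟨h, hh⟩ * g, ?_⟩
      rw [hm]
      have : g * (g⁻¹ * ρ ⟨h, hh⟩ * g) * g⁻¹ = E ⟨h, hh⟩ := by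
        show _ = ρ ⟨h, hh⟩
        group
      rw [this, E.symm_apply_apply]
    · rintro ⟨A, rfl⟩
      rw [hm]; exact (E.symm (g * A * g⁻¹)).2
  have hminj : Function.Injective m := by
    intro A B hAB
    rw [hm, hm] at hAB
    have h1 := E.symm.injective (Subtype.ext hAB)
    have h2 : A = g⁻¹ * (g * A * g⁻¹) * g := by group
    rw [h2, h1]; group
  -- the unipotent group
  let Ug : Subgroup (Matrix.SpecialLinearGroup (Fin 2) F) :=
    { carrier := {A | ∃ a, A = sl2U a}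
      one_mem' := ⟨0, sl2U_zero.symm⟩
      mul_mem' := by
        rintro _ _ ⟨a, rfl⟩ ⟨b, rfl⟩
        exact ⟨_, sl2U_mul a b⟩
      inv_mem' := by
        rintro _ ⟨a, rfl⟩
        exact ⟨_, sl2U_inv a⟩ }
  have hUgp : IsPGroup p Ug := by
    rintro ⟨_, a, rfl⟩
    refine ⟨1, Subtype.ext ?_⟩
    show (sl2U a) ^ p ^ 1 = 1
    rw [pow_one, sl2U_pow, CharP.cast_eq_zero, zero_mul, sl2U_zero]
  let φ : Matrix.SpecialLinearGroup (Fin 2) F →* L := E.symm.toMonoidHom.comp (MulAut.conj g).toMonoidHom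
  have hSU : (S : Subgroup ↥L) = Ug.map φ := by
    symm
    apply S.is_maximal'
    · exact hUgp.map _
    · intro s hs
      refine ⟨g⁻¹ * ρ s * g, ?_, ?_⟩
      · obtain ⟨a, ha⟩ := exists_sl2U (A := g⁻¹ * ρ s * g) (by
          rw [Matrix.SpecialLinearGroup.coe_mul, Matrix.SpecialLinearGroup.coe_mul, ← mulVec_mulVec, hg,
            ← mulVec_mulVec, hfix _ ⟨s, hs, rfl⟩, ← hg, mulVec_mulVec, ← Matrix.SpecialLinearGroup.coe_mul,
            inv_mul_cancel, Matrix.SpecialLinearGroup.coe_one, one_mulVec])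
        exact ⟨a, ha⟩
      · show E.symm (g * (g⁻¹ * ρ s * g) * g⁻¹) = s
        have : g * (g⁻¹ * ρ s * g) * g⁻¹ = E s := by
          show _ = ρ s
          group
        rw [this, E.symm_apply_apply]
  refine ⟨⟨e, m, ?_, ?_, hminj, ?_, hmL, hconj, ?_⟩⟩
  · intro u w'
    show ((Additive.toMul (ψ.symm ((g : Matrix (Fin 2) (Fin 2) F) *ᵥ (u + w'))) : V) : G) = _
    rw [mulVec_add, map_add]
    rfl
  · intro u w' h
    have h1 : (Additive.toMul (ψ.symm ((g : Matrix (Fin 2) (Fin 2) F) *ᵥ u)) : V) =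
      Additive.toMul (ψ.symm ((g : Matrix (Fin 2) (Fin 2) F) *ᵥ w')) := Subtype.ext h
    have h2 := ψ.symm.injective (Additive.toMul.injective h1)
    have h3 := congrArg (fun v => ((g⁻¹ : Matrix.SpecialLinearGroup (Fin 2) F) : Matrix (Fin 2) (Fin 2) F) *ᵥ v) h2
    simpa only [mulVec_mulVec, ← Matrix.SpecialLinearGroup.coe_mul, inv_mul_cancel,
      Matrix.SpecialLinearGroup.coe_one, one_mulVec] using h3
  · intro h
    constructor
    · intro hh
      refine ⟨((g⁻¹ : Matrix.SpecialLinearGroup (Fin 2) F) : Matrix (Fin 2) (Fin 2) F) *ᵥ ψ (Additive.ofMul ⟨h, hh⟩), ?_⟩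
      show h = ((Additive.toMul (ψ.symm ((g : Matrix (Fin 2) (Fin 2) F) *ᵥ
        (((g⁻¹ : Matrix.SpecialLinearGroup (Fin 2) F) : Matrix (Fin 2) (Fin 2) F) *ᵥ ψ (Additive.ofMul ⟨h, hh⟩)))) : V) : G)
      rw [mulVec_mulVec, ← Matrix.SpecialLinearGroup.coe_mul, mul_inv_cancel, Matrix.SpecialLinearGroup.coe_one,
        one_mulVec, ψ.symm_apply_apply]
      rfl
    · rintro ⟨u, rfl⟩
      exact (Additive.toMul (ψ.symm ((g : Matrix (Fin 2) (Fin 2) F) *ᵥ u)) : V).2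
  · intro h
    rw [hSU]
    constructor
    · rintro ⟨_, ⟨_, ⟨a, rfl⟩, rfl⟩, rfl⟩
      exact ⟨a, rfl⟩
    · rintro ⟨a, rfl⟩
      exact ⟨_, ⟨_, ⟨a, rfl⟩, rfl⟩, rfl⟩

end Cfsg.Agent.H46
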