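import Mathlib.GroupTheory.Sylow
import Mathlib.GroupTheory.Commutator.Basic
import Mathlib.Algebra.BigOperators.Group.Finset.Basic
import Cfsg.Agent.H46.SylOf

set_option autoImplicit false

namespace Cfsg.Agent.H46

open Cfsg

/-- Norm argument: `V` abelian, normalized by `R`, `T ≤ R` of finite index, `v ∈ C_V(T)`. Then `v ^ |R : T|` is, modulo
`[V, R]`, in `C_V(R)`. -/
theorem norm_argument {G : Type*} [Group G] {V R T : Subgroup G} (hV : IsMulCommutative V)
    (hR : R ≤ Subgroup.normalizer (V : Set G)) [Finite R] {v : G} (hv : v ∈ V)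
    (hvT : v ∈ Subgroup.centralizer (T : Set G)) :
    ∃ w ∈ V ⊓ Subgroup.centralizer (R : Set G), ∃ c ∈ ⁅V, R⁆, w = v ^ (T.relIndex R) * c := by
  classical
  let _ : CommGroup V := { (inferInstance : Group V) with mul_comm := fun a b => hV.is_comm.comm a b }
  have hconj : ∀ r ∈ R, ∀ x ∈ V, r * x * r⁻¹ ∈ V := fun r hr x hx =>
    (Subgroup.mem_normalizer_iff.1 (hR hr) x).1 hx
  let Q := R ⧸ T.subgroupOf R
  let _ : Fintype Q := Fintype.ofFinite Q
  let f : Q → V := fun q => ⟨((Quotient.out q : R) : G) * v * ((Quotient.out q : R) : G)⁻¹,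
    hconj _ (Quotient.out q : R).2 _ hv⟩
  have hf : ∀ r : R, ((f (QuotientGroup.mk r) : V) : G) = (r : G) * v * (r : G)⁻¹ := by
    intro r
    have h1 : (QuotientGroup.mk (Quotient.out (QuotientGroup.mk r : Q) : R) : Q) = QuotientGroup.mk r :=
      Quotient.out_eq _
    rw [QuotientGroup.eq, Subgroup.mem_subgroupOf] at h1
    set s : R := Quotient.out (QuotientGroup.mk r : Q) with hs
    show (s : G) * v * (s : G)⁻¹ = _
    have h2 := Subgroup.mem_centralizer_iff.1 hvT _ h1
    simp only [Subgroup.coe_mul, Subgroup.coe_inv] at h2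
    have h3 : v * ((s : G)⁻¹ * r) = ((s : G)⁻¹ * r) * v := h2.symm
    calc (s : G) * v * (s : G)⁻¹ = (s : G) * (v * ((s : G)⁻¹ * r)) * (r : G)⁻¹ := by group
      _ = (s : G) * (((s : G)⁻¹ * r) * v) * (r : G)⁻¹ := by rw [h3]
      _ = _ := by group
  let w : V := ∏ q, f q
  have hcard : Fintype.card Q = T.relIndex R := by
    rw [← Nat.card_eq_fintype_card]; rfl
  refine ⟨w, ⟨w.2, ?_⟩, ((v ^ (T.relIndex R))⁻¹ * w : G), ?_, by group⟩
  · refine Subgroup.mem_centralizer_iff.2 ?_
    intro g hg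
    -- conjugation by `g` as a monoid hom of `V`
    let φ : V →* V :=
      { toFun := fun x => ⟨g * x * g⁻¹, hconj g hg _ x.2⟩
        map_one' := by ext; simp
        map_mul' := by intro x y; ext; simp }
    have h1 : φ w = w := by
      show φ (∏ q, f q) = ∏ q, f q
      rw [map_prod]
      refine Fintype.prod_equiv (MulAction.toPerm (⟨g, hg⟩ : R)) _ _ ?_
      intro q
      obtain ⟨r, rfl⟩ := QuotientGroup.mk_surjective q
      apply Subtype.ext
      show g * ((f (QuotientGroup.mk r) : V) : G) * g⁻¹ = ((f ((⟨g, hg⟩ : R) • (QuotientGroup.mk r : Q)) : V) : G)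
      have h2 : ((⟨g, hg⟩ : R) • (QuotientGroup.mk r : Q)) = (QuotientGroup.mk ((⟨g, hg⟩ : R) * r) : Q) := rfl
      rw [h2, hf, hf]
      simp only [Subgroup.coe_mul]
      group
    have h3 : g * (w : G) * g⁻¹ = w := congrArg Subtype.val h1
    rw [mul_inv_eq_iff_eq_mul] at h3
    exact h3
  · have h4 : w = ∏ q, ((⟨v, hv⟩ : V) * ((⟨v, hv⟩ : V)⁻¹ * f q)) := by
      refine Finset.prod_congr rfl fun q _ => ?_
      rw [mul_inv_cancel_left]
    rw [Finset.prod_mul_distrib, Finset.prod_const, Finset.card_univ, hcard] at h4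
    have h5 : ((v ^ (T.relIndex R))⁻¹ * w : G) = ((∏ q, ((⟨v, hv⟩ : V)⁻¹ * f q) : V) : G) := by
      rw [h4]
      simp
    rw [h5, ← Subgroup.mem_subgroupOf]
    refine Subgroup.prod_mem _ fun q _ => ?_
    rw [Subgroup.mem_subgroupOf]
    obtain ⟨r, rfl⟩ := QuotientGroup.mk_surjective q
    simp only [Subgroup.coe_mul, Subgroup.coe_inv]
    rw [hf]
    have h6 := Subgroup.commutator_mem_commutator (V.inv_mem hv) r.2
    rw [commutatorElement_def, inv_inv] at h6
    have h7 : v⁻¹ * ((r : G) * v * (r : G)⁻¹) = v⁻¹ * r * v * (r : G)⁻¹ := by group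
    rw [h7]
    exact h6

/-- S2781 -/
theorem sup_inf_centralizer_eq {G : Type*} [Group G] [Finite G] {p : ℕ} [Fact p.Prime] (V H : Subgroup G)
    (hV : IsElementaryAbelian p V) (hHV : H ≤ Subgroup.normalizer (V : Set G))
    (R : Subgroup G) (hRH : R ≤ H) (hHR : H ≤ Subgroup.normalizer (R : Set G))
    (T : Subgroup G) (hcop : (T.relIndex R).Coprime p)
    (hgen : ∀ W : Subgroup G, H ≤ Subgroup.normalizer (W : Set G) →
      (V ⊓ Subgroup.centralizer ((T : Subgroup G) : Set G)) ≤ W → V ≤ W) :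
    ⁅V, R⁆ ⊔ (V ⊓ Subgroup.centralizer ((R : Subgroup G) : Set G)) = V := by
  apply le_antisymm
  · refine sup_le ?_ inf_le_left
    rw [← Subgroup.le_normalizer_iff_commutator_le_left]
    exact hRH.trans hHV
  · apply hgen
    · intro g hg
      have h1 := mem_normalizer_iff_map_conj.1 (hHV hg)
      have h2 := mem_normalizer_iff_map_conj.1 (hHR hg)
      rw [mem_normalizer_iff_map_conj, Subgroup.map_sup, Subgroup.map_commutator, h1, h2,
        Subgroup.map_inf _ _ _ (MulAut.conj g).injective, h1, map_centralizer, h2]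
    · intro v hv
      obtain ⟨w, hw, c, hc, hwc⟩ := norm_argument hV.1 (hRH.trans hHV) hv.1 hv.2
      have hvn : v ^ (T.relIndex R) ∈ ⁅V, R⁆ ⊔ (V ⊓ Subgroup.centralizer ((R : Subgroup G) : Set G)) := by
        have : v ^ (T.relIndex R) = w * c⁻¹ := by rw [hwc]; group
        rw [this]
        exact Subgroup.mul_mem _ (Subgroup.mem_sup_right hw) (Subgroup.inv_mem _ (Subgroup.mem_sup_left hc))
      have hvp : v ^ p = 1 := hV.2 v hv.1
      have hb := Nat.gcd_eq_gcd_ab (T.relIndex R) p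
      rw [Nat.coprime_iff_gcd_eq_one.1 hcop] at hb
      have : v = (v ^ (T.relIndex R)) ^ (Nat.gcdA (T.relIndex R) p) := by
        have h3 : v = v ^ ((1 : ℕ) : ℤ) := by simp
        conv_lhs => rw [h3, hb, zpow_add, zpow_mul, zpow_mul, zpow_natCast, zpow_natCast, hvp, one_zpow, mul_one]
      rw [this]
      exact Subgroup.zpow_mem _ hvn _

end Cfsg.Agent.H46
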