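import Mathlib

set_option autoImplicit false

namespace Cfsg.Agent.H46

open Matrix

section

variable {F : Type*} [Field F] [Fintype F]

theorem two_eq_zero_of_card_four (hF : Fintype.card F = 4) : (2 : F) = 0 := by
  have h := FiniteField.cast_card_eq_zero F
  rw [hF] at h
  have h2 : (2 : F) * 2 = 0 := by
    have : ((4 : ℕ) : F) = 2 * 2 := by norm_num
    rw [← this, h]
  exact mul_self_eq_zero.1 h2

theorem cube_eq_one_of_card_four (hF : Fintype.card F = 4) {x : F} (hx : x ≠ 0) : x ^ 3 = 1 := by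
  have h := FiniteField.pow_card_sub_one_eq_one x hx
  rw [hF] at h
  exact h

theorem exists_omega_of_card_four (hF : Fintype.card F = 4) : ∃ w : F, w ^ 2 + w + 1 = 0 := by
  classical
  obtain ⟨w, hw⟩ : ∃ w : F, w ∉ ({0, 1} : Finset F) := by
    by_contra hcon
    push Not at hcon
    have h1 : (Finset.univ : Finset F) ⊆ {0, 1} := fun x _ => hcon x
    have h2 := Finset.card_le_card h1
    rw [Finset.card_univ, hF] at h2
    have h3 : ({0, 1} : Finset F).card ≤ 2 := Finset.card_le_two
    omega
  simp only [Finset.mem_insert, Finset.mem_singleton, not_or] at hw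
  refine ⟨w, ?_⟩
  have h3 := cube_eq_one_of_card_four hF hw.1
  have h4 : (w - 1) * (w ^ 2 + w + 1) = 0 := by linear_combination h3
  rcases mul_eq_zero.1 h4 with h5 | h5
  · exact absurd (sub_eq_zero.1 h5) hw.2
  · exact h5

end

section

variable {F : Type*} [Field F]

/-- Cayley-Hamilton for 3 by 3 matrices. -/
theorem cayley_three (g : Matrix (Fin 3) (Fin 3) F) :
    g * g * g - trace g • (g * g) + trace (adjugate g) • g - det g • (1 : Matrix (Fin 3) (Fin 3) F) = 0 := by
  rw [adjugate_fin_three]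
  ext i j
  simp only [trace_fin_three, det_fin_three, Matrix.add_apply, Matrix.sub_apply, Matrix.smul_apply, Matrix.mul_apply,
    Fin.sum_univ_three, smul_eq_mul, Matrix.zero_apply, of_apply, cons_val', cons_val_zero, cons_val_one, cons_val,
    Matrix.one_apply]
  fin_cases i <;> fin_cases j <;> simp <;> ring

theorem adj_eq_of_cube {G : Matrix (Fin 3) (Fin 3) F} {c : F} (hd : det G = 1) (hc : G * G * G = c • 1) :
    G * G = c • adjugate G := by
  have h1 : adjugate G * G = 1 := by rw [adjugate_mul, hd, one_smul]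
  have h2 : adjugate G * (G * G * G) = G * G := by
    rw [← mul_assoc, ← mul_assoc, h1, one_mul]
  rw [← h2, hc, mul_smul_comm, mul_one]

variable [Fintype F]

/-- In `SL₃(4)`: if `G^3` is scalar and `G` is not then `G^3 = 1` and `tr G = tr G^2 = 0`. -/
theorem cube_scalar (hF : Fintype.card F = 4) {G : Matrix (Fin 3) (Fin 3) F} {c : F} (hd : det G = 1)
    (hc : G * G * G = c • 1) (hns : ∀ r : F, G ≠ r • 1) :
    c = 1 ∧ trace G = 0 ∧ trace (G * G) = 0 := by
  have h2 := two_eq_zero_of_card_four hF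
  have hadj := adj_eq_of_cube hd hc
  have hCH := cayley_three G
  rw [hc, hd, one_smul] at hCH
  set t := trace G with ht
  set s := trace (adjugate G) with hs
  -- a scalar matrix is excluded
  have hc0 : c ≠ 0 := by
    rintro rfl
    have h1 := congrArg det hc
    rw [det_mul, det_mul, hd, det_smul] at h1
    simp at h1
  have hinv : ∀ a b : F, a • G = b • (1 : Matrix (Fin 3) (Fin 3) F) → a = 0 := by
    intro a b hab
    by_contra ha
    apply hns (a⁻¹ * b)
    rw [mul_smul, ← hab, smul_smul, inv_mul_cancel₀ ha, one_smul]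
  have hGG : t • (G * G) = s • G + (c - 1) • (1 : Matrix (Fin 3) (Fin 3) F) := by
    rw [sub_smul, one_smul, ← sub_eq_zero, ← neg_eq_zero, ← hCH]
    abel
  by_cases ht0 : t = 0
  · rw [ht0, zero_smul] at hGG
    have h3 : s • G = (-(c - 1)) • (1 : Matrix (Fin 3) (Fin 3) F) := by
      rw [neg_smul]; exact eq_neg_of_add_eq_zero_left hGG.symm
    have hs0 := hinv _ _ h3
    rw [hs0, zero_smul, zero_add] at hGG
    have hc1 : c - 1 = 0 := by
      have := congrFun (congrFun hGG 0) 0
      simpa using this.symm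
    have hc1' : c = 1 := sub_eq_zero.1 hc1
    refine ⟨hc1', ht0, ?_⟩
    rw [hadj, trace_smul, ← hs, hs0, smul_zero]
  · exfalso
    set α := (c - 1) / t with hα
    set β := s / t with hβ
    have h4 : G * G = α • (1 : Matrix (Fin 3) (Fin 3) F) + β • G := by
      have : G * G = t⁻¹ • (t • (G * G)) := by rw [smul_smul, inv_mul_cancel₀ ht0, one_smul]
      rw [this, hGG, smul_add, smul_smul, smul_smul, add_comm, hα, hβ, div_eq_inv_mul, div_eq_inv_mul]
    have h5 : (α + β * β) • G = (c - α * β) • (1 : Matrix (Fin 3) (Fin 3) F) := by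
      have h6 : G * G * G = (α + β * β) • G + (α * β) • (1 : Matrix (Fin 3) (Fin 3) F) := by
        rw [h4, add_mul, smul_mul_assoc, smul_mul_assoc, one_mul, h4, smul_add, smul_smul, smul_smul, add_smul,
          mul_comm β α]
        abel
      rw [hc] at h6
      rw [sub_smul, h6]
      abel
    have h7 := hinv _ _ h5
    rw [h7, zero_smul] at h5
    have h8 : c - α * β = 0 := by
      have := congrFun (congrFun h5 0) 0
      simpa using this.symm
    have hα2 : α = β * β := by linear_combination h7 - β * β * h2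
    have hcβ : c = β ^ 3 := by
      rw [hα2] at h8
      linear_combination h8
    have hβ0 : β ≠ 0 := by
      rintro h9
      rw [h9] at hcβ
      exact hc0 (by rw [hcβ]; ring)
    have hc1 : c = 1 := by rw [hcβ]; exact cube_eq_one_of_card_four hF hβ0
    -- then `α = 0`, hence `β = 0`
    have : α = 0 := by rw [hα, hc1]; simp
    rw [this] at hα2
    exact hβ0 (mul_self_eq_zero.1 hα2.symm)

/-- The diagonal matrix `diag(1, w, w²)`. -/
def omegaDiag (w : F) (hw : w ^ 2 + w + 1 = 0) : Matrix.SpecialLinearGroup (Fin 3) F :=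
  ⟨diagonal ![1, w, w ^ 2], by
    rw [det_diagonal, Fin.prod_univ_three]
    simp
    linear_combination (w - 1) * hw⟩

/-- eigenvector matrices -/
theorem exists_conj_omegaDiag (hF : Fintype.card F = 4) {w : F} (hw : w ^ 2 + w + 1 = 0)
    (A : Matrix.SpecialLinearGroup (Fin 3) F) {c : F}
    (hc : (A : Matrix (Fin 3) (Fin 3) F) * A * A = c • 1)
    (hns : ∀ r : F, (A : Matrix (Fin 3) (Fin 3) F) ≠ r • 1) :
    ∃ P : Matrix.SpecialLinearGroup (Fin 3) F, A = P * omegaDiag w hw * P⁻¹ := by
  set G := (A : Matrix (Fin 3) (Fin 3) F) with hG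
  have h2 := two_eq_zero_of_card_four hF
  have hw3 : w ^ 3 = 1 := by linear_combination (w - 1) * hw
  obtain ⟨hc1, ht1, ht2⟩ := cube_scalar hF A.2 hc hns
  have hG3 : G * G * G = 1 := by rw [hc, hc1, one_smul]
  -- for each cube root of unity an eigenvector
  have key : ∀ x : F, x ^ 3 = 1 → ∃ v : Fin 3 → F, v ≠ 0 ∧ G *ᵥ v = x • v := by
    intro x hx
    set E : Matrix (Fin 3) (Fin 3) F := 1 + x ^ 2 • G + x • (G * G) with hE
    have hEt : trace E = 1 := by
      rw [hE, trace_add, trace_add, trace_smul, trace_smul]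
      rw [show trace G = 0 from ht1, ht2]
      simp
      linear_combination h2
    have hGE : G * E = x • E := by
      rw [hE, mul_add, mul_add, mul_one, mul_smul_comm, mul_smul_comm, ← mul_assoc, hG3, smul_add, smul_add,
        smul_smul, smul_smul]
      have : x * x ^ 2 = 1 := by rw [← hx]; ring
      rw [this, one_smul, pow_two]
      abel
    have hE0 : E ≠ 0 := by
      intro h0
      rw [h0, trace_zero] at hEt
      exact zero_ne_one hEt
    obtain ⟨j, hj⟩ : ∃ j, E *ᵥ (Pi.single j 1) ≠ 0 := by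
      by_contra hcon
      push Not at hcon
      apply hE0
      ext i j
      have := congrFun (hcon j) i
      rw [mulVec_single_one, Matrix.col_apply] at this
      exact this
    refine ⟨_, hj, ?_⟩
    rw [mulVec_mulVec, hGE, smul_mulVec]
  obtain ⟨v0, hv0, hg0⟩ := key 1 (by ring)
  obtain ⟨v1, hv1, hg1⟩ := key w hw3
  obtain ⟨v2, hv2, hg2⟩ := key (w ^ 2) (by rw [← pow_mul, mul_comm, pow_mul, hw3, one_pow])
  set P : Matrix (Fin 3) (Fin 3) F := Matrix.of fun i j => ![v0, v1, v2] j i with hP
  have hGP : G * P = P * diagonal ![1, w, w ^ 2] := by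
    ext i j
    have e : ∀ (v : Fin 3 → F) (x : F), G *ᵥ v = x • v → ∑ k, G i k * v k = v i * x := by
      intro v x h
      have := congrFun h i
      simp only [mulVec, dotProduct, Pi.smul_apply, smul_eq_mul] at this
      rw [this, mul_comm]
    rw [mul_diagonal, Matrix.mul_apply, hP]
    simp only [of_apply]
    fin_cases j
    · simpa using e v0 1 hg0
    · simpa using e v1 w hg1
    · simpa using e v2 (w ^ 2) hg2
  have hdet : det P ≠ 0 := by
    intro h0
    obtain ⟨a, ha, hPa⟩ := exists_mulVec_eq_zero_iff.2 h0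
    have hlin : ∀ i, a 0 * v0 i + a 1 * v1 i + a 2 * v2 i = 0 := by
      intro i
      have := congrFun hPa i
      simp only [hP, mulVec, dotProduct, of_apply, Fin.sum_univ_three, Pi.zero_apply] at this
      simp at this
      linear_combination this
    have hvec : a 0 • v0 + a 1 • v1 + a 2 • v2 = 0 := by
      ext i
      simpa using hlin i
    have hvec1 : a 0 • v0 + (w * a 1) • v1 + (w ^ 2 * a 2) • v2 = 0 := by
      have := congrArg (fun v => G *ᵥ v) hvec
      simp only [mulVec_add, mulVec_smul, hg0, hg1, hg2, mulVec_zero, smul_smul] at this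
      rw [mul_one, mul_comm (a 1), mul_comm (a 2)] at this
      exact this
    have hvec2 : a 0 • v0 + (w ^ 2 * a 1) • v1 + (w * a 2) • v2 = 0 := by
      have := congrArg (fun v => G *ᵥ v) hvec1
      simp only [mulVec_add, mulVec_smul, hg0, hg1, hg2, mulVec_zero, smul_smul] at this
      have e1 : w * a 1 * w = w ^ 2 * a 1 := by ring
      have e2 : w ^ 2 * a 2 * w ^ 2 = w * a 2 := by linear_combination (w * a 2) * hw3
      rw [mul_one, e1, e2] at this
      exact this
    have z0 : a 0 = 0 := by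
      by_contra hne
      apply hv0
      ext i
      have i0 := congrFun hvec i
      have i1 := congrFun hvec1 i
      have i2 := congrFun hvec2 i
      simp only [Pi.add_apply, Pi.smul_apply, smul_eq_mul, Pi.zero_apply] at i0 i1 i2
      have : a 0 * v0 i = 0 := by
        linear_combination i0 + i1 + i2 - (a 0 * v0 i) * h2 - (a 1 * v1 i) * hw - (a 2 * v2 i) * hw
      exact (mul_eq_zero.1 this).resolve_left hne
    have z1 : a 1 = 0 := by
      by_contra hne
      apply hv1
      ext i
      have i0 := congrFun hvec i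
      have i1 := congrFun hvec1 i
      have i2 := congrFun hvec2 i
      simp only [Pi.add_apply, Pi.smul_apply, smul_eq_mul, Pi.zero_apply] at i0 i1 i2
      have : a 1 * v1 i = 0 := by
        linear_combination i0 + w ^ 2 * i1 + w * i2 - (a 0 * v0 i) * hw - (a 1 * v1 i) * (2 * hw3 + h2) -
          (a 2 * v2 i) * (hw + w * hw3)
      exact (mul_eq_zero.1 this).resolve_left hne
    have z2 : a 2 = 0 := by
      by_contra hne
      apply hv2
      ext i
      have i0 := congrFun hvec i
      simp only [Pi.add_apply, Pi.smul_apply, smul_eq_mul, Pi.zero_apply, z0, z1, zero_mul, zero_add] at i0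
      exact (mul_eq_zero.1 i0).resolve_left hne
    apply ha
    ext i
    fin_cases i
    · exact z0
    · exact z1
    · exact z2
  -- rescale
  set Q : Matrix (Fin 3) (Fin 3) F := P * diagonal ![(det P)⁻¹, 1, 1] with hQ
  have hQd : det Q = 1 := by
    rw [hQ, det_mul, det_diagonal, Fin.prod_univ_three]
    simp
    exact mul_inv_cancel₀ hdet
  have hGQ : G * Q = Q * diagonal ![1, w, w ^ 2] := by
    rw [hQ, ← mul_assoc, hGP, mul_assoc, mul_assoc, diagonal_mul_diagonal, diagonal_mul_diagonal]
    congr 2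
    ext i
    ring
  obtain ⟨QQ, hQQ⟩ : ∃ QQ : Matrix.SpecialLinearGroup (Fin 3) F, (QQ : Matrix (Fin 3) (Fin 3) F) = Q :=
    ⟨⟨Q, hQd⟩, rfl⟩
  refine ⟨QQ, ?_⟩
  have hfin : A * QQ = QQ * omegaDiag w hw := by
    have h5 : ((A * QQ : Matrix.SpecialLinearGroup (Fin 3) F) : Matrix (Fin 3) (Fin 3) F) =
        ((QQ * omegaDiag w hw : Matrix.SpecialLinearGroup (Fin 3) F) : Matrix (Fin 3) (Fin 3) F) := by
      rw [Matrix.SpecialLinearGroup.coe_mul, Matrix.SpecialLinearGroup.coe_mul, hQQ]
      exact hGQ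
    exact Subtype.ext h5
  exact eq_mul_inv_of_mul_eq hfin

/-- S2739 -/
theorem psl34_order_three (hF : Fintype.card F = 4) {w : F} (hw : w ^ 2 + w + 1 = 0)
    (x : Matrix.ProjectiveSpecialLinearGroup (Fin 3) F) (hx : orderOf x = 3) :
    ∃ g : Matrix.ProjectiveSpecialLinearGroup (Fin 3) F,
      x = g * (QuotientGroup.mk (omegaDiag w hw)) * g⁻¹ := by
  obtain ⟨A, rfl⟩ := QuotientGroup.mk_surjective x
  have h1 : A ^ 3 ∈ Subgroup.center (Matrix.SpecialLinearGroup (Fin 3) F) := by
    rw [← QuotientGroup.eq_one_iff, QuotientGroup.mk_pow]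
    exact orderOf_dvd_iff_pow_eq_one.1 (by rw [hx])
  have h2 : A ∉ Subgroup.center (Matrix.SpecialLinearGroup (Fin 3) F) := by
    intro h
    have h3 := orderOf_eq_one_iff.2 ((QuotientGroup.eq_one_iff A).2 h)
    rw [hx] at h3
    norm_num at h3
  rw [Matrix.SpecialLinearGroup.mem_center_iff] at h1 h2
  obtain ⟨c, _, hc⟩ := h1
  have hc' : (A : Matrix (Fin 3) (Fin 3) F) * A * A = c • 1 := by
    rw [← Matrix.SpecialLinearGroup.coe_mul, ← Matrix.SpecialLinearGroup.coe_mul,
      show A * A * A = A ^ 3 by rw [pow_succ, pow_two], ← hc, Matrix.scalar_apply, Matrix.smul_one_eq_diagonal]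
  have hns : ∀ r : F, (A : Matrix (Fin 3) (Fin 3) F) ≠ r • 1 := by
    intro r hr
    apply h2
    refine ⟨r, ?_, ?_⟩
    · have hd := A.2
      rw [hr, det_smul, det_one, mul_one] at hd
      exact hd
    · rw [hr, Matrix.scalar_apply, Matrix.smul_one_eq_diagonal]
  obtain ⟨P, hP⟩ := exists_conj_omegaDiag hF hw A hc' hns
  refine ⟨QuotientGroup.mk P, ?_⟩
  rw [hP]
  rfl

open scoped Pointwise in
theorem psl34_conj (hF : Fintype.card F = 4)
    (X Y : Subgroup (Matrix.ProjectiveSpecialLinearGroup (Fin 3) F)) (hX : Nat.card ↥X = 3)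
    (hY : Nat.card ↥Y = 3) :
    ∃ g : Matrix.ProjectiveSpecialLinearGroup (Fin 3) F, MulAut.conj g • X = Y := by
  obtain ⟨w, hw⟩ := exists_omega_of_card_four hF
  have key : ∀ X : Subgroup (Matrix.ProjectiveSpecialLinearGroup (Fin 3) F), Nat.card ↥X = 3 →
      ∃ g : Matrix.ProjectiveSpecialLinearGroup (Fin 3) F,
        X = MulAut.conj g • Subgroup.zpowers (QuotientGroup.mk (omegaDiag w hw)) := by
    intro X hX
    have hfin : Finite X := Nat.finite_of_card_ne_zero (by rw [hX]; norm_num)
    obtain ⟨x, hx⟩ : ∃ x : X, orderOf x = 3 := by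
      have : Fact (Nat.Prime 3) := ⟨Nat.prime_three⟩
      exact exists_prime_orderOf_dvd_card' 3 (by rw [hX])
    have hx' : orderOf (x : Matrix.ProjectiveSpecialLinearGroup (Fin 3) F) = 3 := by
      rw [Subgroup.orderOf_coe, hx]
    have hXz : X = Subgroup.zpowers (x : Matrix.ProjectiveSpecialLinearGroup (Fin 3) F) := by
      symm
      apply Subgroup.eq_of_le_of_card_ge
      · rw [Subgroup.zpowers_le]; exact x.2
      · rw [Nat.card_zpowers, hx', hX]
    obtain ⟨g, hg⟩ := psl34_order_three hF hw _ hx'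
    refine ⟨g, ?_⟩
    rw [hXz, hg]
    have : MulAut.conj g • Subgroup.zpowers (QuotientGroup.mk (omegaDiag w hw) :
        Matrix.ProjectiveSpecialLinearGroup (Fin 3) F) =
        (Subgroup.zpowers (QuotientGroup.mk (omegaDiag w hw))).map (MulAut.conj g).toMonoidHom := rfl
    rw [this, MonoidHom.map_zpowers]
    rfl
  obtain ⟨g, hg⟩ := key X hX
  obtain ⟨h, hh⟩ := key Y hY
  refine ⟨h * g⁻¹, ?_⟩
  rw [hg, hh, map_mul, mul_smul, map_inv, inv_smul_smul]

end

end Cfsg.Agent.H46
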